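import Cfsg.Agent.Lib.FusionExamples.J4Sub.S60.Data

/-! Generated coset-enumeration certificate: J47 over <>, 60 cosets. -/

set_option autoImplicit false
set_option maxRecDepth 20000
set_option linter.all false
set_option Elab.async false

namespace CfsgLib.FusionExamples.J4Sub.Stab.S60

open CfsgLib.SporRecognition.CosetCert

def codes60 : List Nat := [
  0x20000000000030000000000,
  0x50000000001,
  0x70000010001,
  0x90000020001,
  0xc00000000000d0000030000,
  0x100000000000110000040000,
  0x140000000000150000050000,
  0x170000060001,
  0x190000070001,
  0x1b0000080001,
  0x1d0000090001,
  0x1f00000a0001,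
  0x2100000b0001,
  0x2400000000002500000c0000,
  0x2800000000002900000d0000,
  0x2c00000000002d00000e0000,
  0x9600002700001900008200000b00000500000400007a00007d00001200008400008b00002e0000980000160002,
  0x990000150001,
  0x3000000000003100000f0000,
  0x340000000000350000100000,
  0x9e00002f00001d00008400000f00000700000100000400007f00001600008600008f0000360000a000001a0002,
  0xa10000190001,
  0x380000000000390000110000,
  0x2100008600001300000900007a00000100007b00000e0000820000870000260000940000000000a60000370000110002,
  0xa700001d0001,
  0x3b0000130001,
  0x3d0000140001,
  0x3f0000170001,
  0x410000180001,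
  0x4300001b0001,
  0x4500001c0001,
  0x4800000000004900001e0000,
  0x4c00000000004d00001f0000,
  0xb800004700003b00009400002300001700000b00000e00008900002a0000960000ad00004e0000ba0000260002,
  0xbb0000250001,
  0x500000000000510000200000,
  0x540000000000550000210000,
  0xc000004f00003f00009800002b00001b00000f00001200008d00003200009e0000b10000560000c200002a0002,
  0xc30000290001,
  0x580000000000590000220000,
  0x5c00000000005d0000230000,
  0xc80000570000430000a000003300001f00001300001600009100003a0000a60000b500005e0000ca00002e0002,
  0xcb00002d0001,
  0x5f0000240001,
  0x610000270001,
  0x630000280001,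
  0x6500002b0001,
  0x6700002c0001,
  0x6900002f0001,
  0x690000ca00005b00004500003700003a0000a90000230000260000ab00004a0000b80000cf00006c0000000000350002,
  0x6b0000000000dc0000360000,
  0x610000ba00004b00003d00002700002a00009b00002b00002e0000af0000520000c00000d300000000006d0000310002,
  0xe000000000006e0000370000,
  0x650000c200005300004100002f0000320000a30000330000360000b300005a0000c80000d700000000006f0000330002,
  0xe40000000000700000380000,
  0x710000360001,
  0x730000370001,
  0x750000380001,
  0xbd00004b00004e0000d10000e20000df0000e90000000000770000710000db0000de00005f00004700004a0000250002,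
  0x780000ee00003a0000,
  0x7300006d0000e200006300004f0000520000c50000530000560000d50000e60000e30000eb0000000000770000f000003a0002,
  0xf10000ee00003a0003,
  0xf10000770000390004]

theorem steps60 : allList (step inv fact rule 7 7) codes60 60 = true := by
  decide +kernel

theorem covers1 : Covers (step inv fact rule 7 7) 60 123 :=
  (Covers.of_list steps60 rfl : Covers _ 60 123)

end CfsgLib.FusionExamples.J4Sub.Stab.S60
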