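import Cfsg.Agent.Lib.SporRecognition.CosetCert.Upper
import Cfsg.Agent.Lib.FusionExamples.J4Sub.S60.Steps1
import Cfsg.Agent.Lib.FusionExamples.J4Sub.Small

/-! Generated coset-enumeration certificate: J47 over <>, 60 cosets. -/

set_option autoImplicit false
set_option maxRecDepth 20000
set_option linter.all false
set_option Elab.async false

namespace CfsgLib.FusionExamples.J4Sub.Stab.S60

open CfsgLib.SporRecognition.CosetCert

theorem defs_ok : allBelow 6 60 (defStep inv fact) = true := by decide +kernel

theorem final1 : allBelow 6 60 (finalStep fact node item1 T1 123 1 60) = true := by decide +kernel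

theorem final2 : allBelow 6 60 (finalStep fact node item2 T2 123 2 60) = true := by decide +kernel

theorem final3 : allBelow 6 60 (finalStep fact node item3 T3 123 3 60) = true := by decide +kernel

theorem final4 : allBelow 6 60 (finalStep fact node item4 T4 123 4 60) = true := by decide +kernel

theorem relW_one : ∀ w ∈ relW, evalW (PresentedGroup.of (rels := (Cfsg.Spor.coxRelators CfsgLib.FusionExamples.J4Sub.Stab.edges ∪ {r | r ∈ CfsgLib.FusionExamples.J4Sub.Stab.extra}))) w = 1 := by
  have h : coxW CfsgLib.FusionExamples.J4Sub.Stab.edges pairs extraW = relW := by decide +kernel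
  rw [← h]
  exact coxW_eq_one (by decide +kernel) rfl

theorem relW_one_ext : ∀ w ∈ (relW ++ [[(.a, true), (.a, true)], [(.a, true), (.g12, true), (.g12, true), (.a, true), (.g12, true), (.g12, true), (.a, true), (.g12, true), (.g12, true), (.a, true), (.g12, true), (.g12, true), (.a, true), (.g12, true), (.g12, true)]]), evalW (PresentedGroup.of (rels := (Cfsg.Spor.coxRelators CfsgLib.FusionExamples.J4Sub.Stab.edges ∪ {r | r ∈ CfsgLib.FusionExamples.J4Sub.Stab.extra}))) w = 1 := by
  intro w hw
  rcases List.mem_append.mp hw with hw | hw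
  · exact relW_one w hw
  · exact CfsgLib.FusionExamples.J4Sub.Stab.xrel_one w hw

noncomputable def tabU : CfsgLib.FusionExamples.J4Sub.Stab.Gen → Nat → Nat := fun a => tabs a true

theorem sect : ∃ s : Nat → PresentedGroup (Cfsg.Spor.coxRelators CfsgLib.FusionExamples.J4Sub.Stab.edges ∪ {r | r ∈ CfsgLib.FusionExamples.J4Sub.Stab.extra}) ⧸ wordSubgroup (Cfsg.Spor.coxRelators CfsgLib.FusionExamples.J4Sub.Stab.edges ∪ {r | r ∈ CfsgLib.FusionExamples.J4Sub.Stab.extra}) subW,
    s 0 = ((1 : PresentedGroup (Cfsg.Spor.coxRelators CfsgLib.FusionExamples.J4Sub.Stab.edges ∪ {r | r ∈ CfsgLib.FusionExamples.J4Sub.Stab.extra})) : PresentedGroup (Cfsg.Spor.coxRelators CfsgLib.FusionExamples.J4Sub.Stab.edges ∪ {r | r ∈ CfsgLib.FusionExamples.J4Sub.Stab.extra}) ⧸ wordSubgroup (Cfsg.Spor.coxRelators CfsgLib.FusionExamples.J4Sub.Stab.edges ∪ {r | r ∈ CfsgLib.FusionExamples.J4Sub.Stab.extra}) subW) ∧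
    ∀ a ∈ ([.g12, .a] : List CfsgLib.FusionExamples.J4Sub.Stab.Gen), ∀ u, u < 60 → tabU a u < 60 ∧
      (PresentedGroup.of (rels := (Cfsg.Spor.coxRelators CfsgLib.FusionExamples.J4Sub.Stab.edges ∪ {r | r ∈ CfsgLib.FusionExamples.J4Sub.Stab.extra})) a) • s u = s (tabU a u) :=
  section_of_checks invols (relW ++ [[(.a, true), (.a, true)], [(.a, true), (.g12, true), (.g12, true), (.a, true), (.g12, true), (.g12, true), (.a, true), (.g12, true), (.g12, true), (.a, true), (.g12, true), (.g12, true), (.a, true), (.g12, true), (.g12, true)]]) relW_one_ext (by decide +kernel) subW lets data rtriv rroot 7 7 rfl rfl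
    (by decide +kernel) (by decide +kernel) (fun k hk => allBelow_spec defs_ok k hk) (covers1) (by decide +kernel)
    (by
      intro i hi u hu
      have hi' : i < 4 := hi
      interval_cases i
      · exact allBelow_spec final1 u hu
      · exact allBelow_spec final2 u hu
      · exact allBelow_spec final3 u hu
      · exact allBelow_spec final4 u hu
      ) [.g12, .a] tabU (by
      intro a ha
      fin_cases ha
      · exact ⟨0, by decide, rfl, rfl⟩
      · exact ⟨2, by decide, rfl, rfl⟩
      )

end CfsgLib.FusionExamples.J4Sub.Stab.S60
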